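/-
Elementary dimension bounds for eigenspaces of invertible matrices which are permuted by other invertible matrices.
-/
import Mathlib

open scoped MatrixGroups

set_option autoImplicit false

namespace CfsgLib.ExtraEig

variable {F : Type*} [Field F] {n : ℕ}

/-- The eigenspace of an invertible matrix, inside `Fⁿ`. -/
abbrev eig (g : GL (Fin n) F) (c : F) : Submodule F (Fin n → F) :=
  Module.End.eigenspace (Matrix.toLin' (g : Matrix (Fin n) (Fin n) F)) c

theorem mem_eig {g : GL (Fin n) F} {c : F} {v : Fin n → F} :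
    v ∈ eig g c ↔ (g : Matrix (Fin n) (Fin n) F).mulVec v = c • v := by
  simp [eig]

theorem mulVec_injective' (x : GL (Fin n) F) {v : Fin n → F}
    (hv : (x : Matrix (Fin n) (Fin n) F).mulVec v = 0) : v = 0 := by
  have h := congrArg ((x⁻¹ : GL (Fin n) F) : Matrix (Fin n) (Fin n) F).mulVec hv
  rwa [Matrix.mulVec_mulVec, ← Units.val_mul, inv_mul_cancel, Units.val_one, Matrix.one_mulVec,
    Matrix.mulVec_zero] at h

theorem eig_zero (g : GL (Fin n) F) : eig g 0 = ⊥ := by
  rw [Submodule.eq_bot_iff]
  intro v hv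
  rw [mem_eig, zero_smul] at hv
  exact mulVec_injective' g hv

theorem finrank_le_of_mapsTo (x : GL (Fin n) F) (U U' : Submodule F (Fin n → F))
    (h : ∀ v ∈ U, (x : Matrix (Fin n) (Fin n) F).mulVec v ∈ U') :
    Module.finrank F U ≤ Module.finrank F U' := by
  let f : U →ₗ[F] U' := LinearMap.codRestrict U' ((Matrix.toLin' (x : Matrix (Fin n) (Fin n) F)).comp U.subtype)
    (fun v => by simpa using h v.1 v.2)
  refine LinearMap.finrank_le_finrank_of_injective (f := f) (LinearMap.ker_eq_bot.mp ?_)
  rw [LinearMap.ker_eq_bot']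
  intro v hv
  have h1 : (x : Matrix (Fin n) (Fin n) F).mulVec v.1 = 0 := by
    have := congrArg Subtype.val hv
    simpa [f] using this
  exact Subtype.ext (mulVec_injective' x h1)

theorem finrank_finsetSup_le {ι : Type*} (s : Finset ι) (E : ι → Submodule F (Fin n → F)) :
    Module.finrank F (s.sup E : Submodule F (Fin n → F)) ≤ ∑ i ∈ s, Module.finrank F (E i) := by
  classical
  induction s using Finset.induction_on with
  | empty => simp
  | insert a s ha ih =>
    rw [Finset.sup_insert, Finset.sum_insert ha]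
    exact (Submodule.finrank_add_le_finrank_add_finrank _ _).trans (Nat.add_le_add_left ih _)

theorem sum_finrank_of_indep {ι : Type*} (s : Finset ι) (E : ι → Submodule F (Fin n → F))
    (hE : iSupIndep E) :
    ∑ i ∈ s, Module.finrank F (E i) = Module.finrank F (s.sup E : Submodule F (Fin n → F)) := by
  classical
  induction s using Finset.induction_on with
  | empty => rw [Finset.sum_empty, Finset.sup_empty, finrank_bot]
  | insert a s ha ih =>
    rw [Finset.sup_insert, Finset.sum_insert ha, ih]
    have hd : Disjoint (E a) (s.sup E) := by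
      refine (hE a).mono_right (Finset.sup_le fun j hj => ?_)
      exact le_iSup₂_of_le j (fun hja => ha (hja ▸ hj)) le_rfl
    have h := Submodule.finrank_sup_add_finrank_inf_eq (E a) (s.sup E)
    rw [disjoint_iff.mp hd] at h
    simpa using h.symm

/-- A finite family of dimensions, each bounded by the dimension of the intersection of `U` with an eigenspace,
each eigenvalue being used at most `k` times, sums to at most `k * dim U`. -/
theorem sum_le_of_eig {ι : Type*} (s : Finset ι) (g : GL (Fin n) F) (U : Submodule F (Fin n → F))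
    (d : ι → ℕ) (e : ι → F) (k : ℕ)
    (hd : ∀ i ∈ s, d i ≤ Module.finrank F (eig g (e i) ⊓ U : Submodule F (Fin n → F)))
    (hk : ∀ i ∈ s, ∃ t : Finset ι, t.card ≤ k ∧ ∀ j ∈ s, e j = e i → j ∈ t) :
    ∑ i ∈ s, d i ≤ k * Module.finrank F U := by
  classical
  have hE : iSupIndep (fun μ : F => eig g μ ⊓ U) :=
    (Module.End.eigenspaces_iSupIndep (Matrix.toLin' (g : Matrix (Fin n) (Fin n) F))).mono
      (fun μ => inf_le_left)
  rw [← Finset.sum_fiberwise_of_maps_to (t := s.image e) (fun i hi => Finset.mem_image_of_mem e hi)]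
  calc ∑ μ ∈ s.image e, ∑ i ∈ s with e i = μ, d i
      ≤ ∑ μ ∈ s.image e, k * Module.finrank F (eig g μ ⊓ U : Submodule F (Fin n → F)) := by
        refine Finset.sum_le_sum fun μ hμ => ?_
        obtain ⟨i₀, hi₀, rfl⟩ := Finset.mem_image.mp hμ
        obtain ⟨t, htc, ht⟩ := hk i₀ hi₀
        refine (Finset.sum_le_card_nsmul _ _ (Module.finrank F (eig g (e i₀) ⊓ U : Submodule F (Fin n → F)))
          fun j hj => ?_).trans ?_
        · rw [Finset.mem_filter] at hj
          rw [← hj.2]
          exact hd j hj.1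
        · rw [smul_eq_mul]
          refine Nat.mul_le_mul_right _ (le_trans (Finset.card_le_card ?_) htc)
          intro j hj
          rw [Finset.mem_filter] at hj
          exact ht j hj.1 hj.2
    _ = k * ∑ μ ∈ s.image e, Module.finrank F (eig g μ ⊓ U : Submodule F (Fin n → F)) := by
        rw [Finset.mul_sum]
    _ ≤ k * Module.finrank F U := by
        rw [sum_finrank_of_indep _ _ hE]
        exact Nat.mul_le_mul_left _ (Submodule.finrank_mono (Finset.sup_le fun μ _ => inf_le_right))

theorem finrank_top' : Module.finrank F (⊤ : Submodule F (Fin n → F)) = n := by simp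

theorem step_eig {g x : GL (Fin n) F} {l : F}
    (h : ((g * x : GL (Fin n) F) : Matrix (Fin n) (Fin n) F) = l • ((x * g : GL (Fin n) F) : Matrix _ _ F))
    {c : F} {v : Fin n → F} (hv : v ∈ eig g c) :
    (x : Matrix (Fin n) (Fin n) F).mulVec v ∈ eig g (l * c) := by
  rw [mem_eig] at hv ⊢
  rw [Matrix.mulVec_mulVec, ← Units.val_mul, h, Matrix.smul_mulVec, Units.val_mul, ← Matrix.mulVec_mulVec,
    hv, Matrix.mulVec_smul, smul_smul]

/-- If `g x = l x g` with `l` a primitive `r`-th root of unity then the eigenspaces of `g` have dimension at most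
`n / r`. -/
theorem eig_bound {r : ℕ} {g x : GL (Fin n) F} {l : F} (hl : IsPrimitiveRoot l r)
    (h : ((g * x : GL (Fin n) F) : Matrix (Fin n) (Fin n) F) = l • ((x * g : GL (Fin n) F) : Matrix _ _ F))
    (c : F) : r * Module.finrank F (eig g c) ≤ n := by
  by_cases hc : c = 0
  · subst hc
    rw [eig_zero]
    simp
  have hiter : ∀ i : ℕ, Module.finrank F (eig g c) ≤ Module.finrank F (eig g (l ^ i * c)) := by
    intro i
    induction i with
    | zero => rw [pow_zero, one_mul]
    | succ i ih =>
      refine ih.trans ?_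
      rw [pow_succ', mul_assoc]
      exact finrank_le_of_mapsTo x _ _ fun v hv => step_eig h hv
  have := sum_le_of_eig (Finset.range r) g ⊤ (fun _ => Module.finrank F (eig g c)) (fun i => l ^ i * c) 1
    (fun i _ => by rw [inf_top_eq]; exact hiter i)
    (fun i hi => ⟨{i}, by simp, fun j hj hji => by
      rw [Finset.mem_range] at hi hj
      rw [Finset.mem_singleton]
      exact hl.pow_inj hj hi (mul_right_cancel₀ hc hji)⟩)
  simpa [finrank_top'] using this

/-- A subspace invariant under a matrix of order dividing `r` is spanned by its eigenvectors. -/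
theorem le_sup_eig {r : ℕ} {l : F} (hl : IsPrimitiveRoot l r) (hr : 0 < r) {a : GL (Fin n) F}
    (ha : a ^ r = 1) (W : Submodule F (Fin n → F))
    (hW : ∀ v ∈ W, (a : Matrix (Fin n) (Fin n) F).mulVec v ∈ W) :
    W ≤ (Finset.range r).sup (fun j => W ⊓ eig a (l ^ j)) := by
  intro v hv
  haveI : NeZero r := ⟨hr.ne'⟩
  haveI hrF : NeZero ((r : ℕ) : F) := hl.neZero'
  set A : Matrix (Fin n) (Fin n) F := (a : Matrix (Fin n) (Fin n) F) with hA
  have hAr : A ^ r = 1 := by rw [hA, ← Units.val_pow_eq_pow_val, ha, Units.val_one]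
  have hl0 : l ≠ 0 := hl.ne_zero hr.ne'
  set p : ℕ → (Fin n → F) := fun j => ∑ t ∈ Finset.range r, ((l ^ j)⁻¹) ^ t • (A ^ t).mulVec v with hp
  have hpW : ∀ t, (A ^ t).mulVec v ∈ W := by
    intro t
    induction t with
    | zero => simpa using hv
    | succ t ih =>
      rw [pow_succ', ← Matrix.mulVec_mulVec]
      exact hW _ ih
  have hmem : ∀ j, p j ∈ W ⊓ eig a (l ^ j) := by
    intro j
    refine ⟨Submodule.sum_mem _ fun t _ => Submodule.smul_mem _ _ (hpW t), ?_⟩
    show p j ∈ eig a (l ^ j)
    rw [mem_eig, ← hA]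
    have hj0 : l ^ j ≠ 0 := pow_ne_zero _ hl0
    have hshift : ∑ t ∈ Finset.range r, ((l ^ j)⁻¹) ^ (t + 1) • (A ^ (t + 1)).mulVec v = p j := by
      have h1 := Finset.sum_range_succ' (fun t => ((l ^ j)⁻¹) ^ t • (A ^ t).mulVec v) r
      have h2 := Finset.sum_range_succ (fun t => ((l ^ j)⁻¹) ^ t • (A ^ t).mulVec v) r
      rw [h2] at h1
      have hend : ((l ^ j)⁻¹) ^ r • (A ^ r).mulVec v = ((l ^ j)⁻¹) ^ 0 • (A ^ 0).mulVec v := by
        rw [hAr, inv_pow, ← pow_mul, mul_comm, pow_mul, hl.pow_eq_one]
        simp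
      rw [hend] at h1
      exact (add_right_cancel h1).symm
    conv_rhs => rw [← hshift, Finset.smul_sum]
    simp only [hp, Matrix.mulVec_sum, Matrix.mulVec_smul, Matrix.mulVec_mulVec, ← pow_succ']
    refine Finset.sum_congr rfl fun t _ => ?_
    rw [smul_smul]
    congr 1
    rw [pow_succ', ← mul_assoc, mul_inv_cancel₀ hj0, one_mul]
  have hsum : ∑ j ∈ Finset.range r, p j = (r : F) • v := by
    simp only [hp]
    rw [Finset.sum_comm]
    simp_rw [← Finset.sum_smul]
    rw [Finset.sum_eq_single 0]
    · simp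
    · intro t ht ht0
      rw [Finset.mem_range] at ht
      have hy : (∑ j ∈ Finset.range r, ((l ^ j)⁻¹) ^ t) = ∑ j ∈ Finset.range r, ((l ^ t)⁻¹) ^ j := by
        refine Finset.sum_congr rfl fun j _ => ?_
        rw [inv_pow, inv_pow, ← pow_mul, ← pow_mul, mul_comm]
      have hne : (l ^ t)⁻¹ ≠ 1 := by
        rw [ne_eq, inv_eq_one]
        exact hl.pow_ne_one_of_pos_of_lt ht0 ht
      rw [hy, geom_sum_eq hne, inv_pow, ← pow_mul, mul_comm, pow_mul, hl.pow_eq_one]
      simp
    · intro h
      simp [hr] at h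
  have hin : ∑ j ∈ Finset.range r, p j ∈ (Finset.range r).sup (fun j => W ⊓ eig a (l ^ j)) :=
    Submodule.sum_mem _ fun j hj =>
      (Finset.le_sup (f := fun j => W ⊓ eig a (l ^ j)) hj) (hmem j)
  rw [hsum] at hin
  have := Submodule.smul_mem _ (r : F)⁻¹ hin
  rwa [smul_smul, inv_mul_cancel₀ hrF.out, one_smul] at this

/-- The first configuration: `g` commutes with `a`, `g h g⁻¹ = a h`, `h` commutes with `a` and `aʳ = 1`. -/
theorem bound_commuting {r : ℕ} (hr : r.Prime) {l : F} (hl : IsPrimitiveRoot l r) {g a h : GL (Fin n) F}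
    (ha : a ^ r = 1) (hga : g * a = a * g) (hgh : g * h = a * h * g) (hah : a * h = h * a)
    (hfix : r * Module.finrank F (eig a 1) ≤ n) (c : F) :
    r * Module.finrank F (eig g c) ≤ 2 * n := by
  by_cases hc : c = 0
  · subst hc
    rw [eig_zero]
    simp
  set W := eig g c with hW
  have hinv : ∀ v ∈ W, (a : Matrix (Fin n) (Fin n) F).mulVec v ∈ W := by
    intro v hv
    have := step_eig (g := g) (x := a) (l := 1) (by rw [one_smul, hga]) hv
    rwa [one_mul] at this
  have hle : Module.finrank F W ≤
      ∑ j ∈ Finset.range r, Module.finrank F (W ⊓ eig a (l ^ j) : Submodule F (Fin n → F)) :=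
    (Submodule.finrank_mono (le_sup_eig hl hr.pos ha W hinv)).trans (finrank_finsetSup_le _ _)
  have hstep : ∀ (α : F) (i : ℕ), Module.finrank F (eig g c ⊓ eig a α : Submodule F (Fin n → F)) ≤
      Module.finrank F (eig g (α ^ i * c) ⊓ eig a α : Submodule F (Fin n → F)) := by
    intro α i
    induction i with
    | zero => rw [pow_zero, one_mul]
    | succ i ih =>
      refine ih.trans ?_
      refine finrank_le_of_mapsTo h _ _ fun v hv => ?_
      obtain ⟨hv1, hv2⟩ := Submodule.mem_inf.mp hv
      rw [mem_eig] at hv1 hv2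
      have hav : (a : Matrix (Fin n) (Fin n) F).mulVec ((h : Matrix (Fin n) (Fin n) F).mulVec v) =
          α • (h : Matrix (Fin n) (Fin n) F).mulVec v := by
        rw [Matrix.mulVec_mulVec, ← Units.val_mul, hah, Units.val_mul, ← Matrix.mulVec_mulVec, hv2,
          Matrix.mulVec_smul]
      refine Submodule.mem_inf.mpr ⟨mem_eig.mpr ?_, mem_eig.mpr hav⟩
      rw [Matrix.mulVec_mulVec, ← Units.val_mul, hgh, Units.val_mul, ← Matrix.mulVec_mulVec, hv1,
        Matrix.mulVec_smul, Units.val_mul, ← Matrix.mulVec_mulVec, hav, smul_smul]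
      congr 1
      ring
  have hZ : ∀ j ∈ Finset.range r,
      r * Module.finrank F (W ⊓ eig a (l ^ j) : Submodule F (Fin n → F)) ≤
        Module.finrank F (eig a (l ^ j)) + (if j = 0 then n else 0) := by
    intro j hj
    rw [Finset.mem_range] at hj
    by_cases hj0 : j = 0
    · subst hj0
      have h1 : Module.finrank F (W ⊓ eig a (l ^ 0) : Submodule F (Fin n → F)) ≤
          Module.finrank F (eig a 1) := by
        rw [pow_zero]
        exact Submodule.finrank_mono inf_le_right
      have := Nat.mul_le_mul_left r h1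
      simp only [if_true]
      omega
    · simp only [hj0, if_false, add_zero]
      have hprim : ∀ i < r, ∀ k < r, (l ^ j) ^ i = (l ^ j) ^ k → i = k := by
        intro i hi k hk hik
        have hcop : j.Coprime r :=
          ((Nat.Prime.coprime_iff_not_dvd hr).mpr fun hd =>
            hj0 (Nat.eq_zero_of_dvd_of_lt hd hj)).symm
        exact (hl.pow_of_coprime j hcop).pow_inj hi hk hik
      have := sum_le_of_eig (Finset.range r) g (eig a (l ^ j))
        (fun _ => Module.finrank F (W ⊓ eig a (l ^ j) : Submodule F (Fin n → F)))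
        (fun i => (l ^ j) ^ i * c) 1 (fun i _ => hstep (l ^ j) i)
        (fun i hi => ⟨{i}, by simp, fun k hk hki => by
          rw [Finset.mem_range] at hi hk
          rw [Finset.mem_singleton]
          exact hprim k hk i hi (mul_right_cancel₀ hc hki)⟩)
      simpa using this
  have htot : ∑ j ∈ Finset.range r, Module.finrank F (eig a (l ^ j)) ≤ n := by
    have := sum_le_of_eig (Finset.range r) a ⊤ (fun j => Module.finrank F (eig a (l ^ j)))
      (fun j => l ^ j) 1 (fun i _ => by rw [inf_top_eq])
      (fun i hi => ⟨{i}, by simp, fun k hk hki => by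
        rw [Finset.mem_range] at hi hk
        rw [Finset.mem_singleton]
        exact hl.pow_inj hk hi hki⟩)
    simpa [finrank_top'] using this
  have hsum := Finset.sum_le_sum hZ
  rw [← Finset.mul_sum, Finset.sum_add_distrib, Finset.sum_ite_eq' (Finset.range r) 0 (fun _ => n)] at hsum
  have := Nat.mul_le_mul_left r hle
  have h0 : 0 ∈ Finset.range r := Finset.mem_range.mpr hr.pos
  rw [if_pos h0] at hsum
  omega

/-- The second configuration: `g` commutes with `a`, `g x g⁻¹ = a x` and `a x = l x a` with `l ≠ 1`. -/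
theorem bound_shift {r : ℕ} (hr : r.Prime) {l : F} (hl : IsPrimitiveRoot l r)
    {g a x : GL (Fin n) F} (ha : a ^ r = 1) (hga : g * a = a * g) (hgx : g * x = a * x * g)
    (hax : ((a * x : GL (Fin n) F) : Matrix (Fin n) (Fin n) F) = l • ((x * a : GL (Fin n) F) : Matrix _ _ F))
    (hfix : r * Module.finrank F (eig a 1) ≤ n) (c : F) :
    r * Module.finrank F (eig g c) ≤ 2 * n := by
  by_cases hc : c = 0
  · subst hc
    rw [eig_zero]
    simp
  haveI : Fact r.Prime := ⟨hr⟩
  set W := eig g c with hW
  have hinv : ∀ v ∈ W, (a : Matrix (Fin n) (Fin n) F).mulVec v ∈ W := by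
    intro v hv
    have := step_eig (g := g) (x := a) (l := 1) (by rw [one_smul, hga]) hv
    rwa [one_mul] at this
  have hle : Module.finrank F W ≤
      ∑ j ∈ Finset.range r, Module.finrank F (W ⊓ eig a (l ^ j) : Submodule F (Fin n → F)) :=
    (Submodule.finrank_mono (le_sup_eig hl hr.pos ha W hinv)).trans (finrank_finsetSup_le _ _)
  -- twice the exponent of the eigenvalue after `i` steps
  have hstep : ∀ (j i : ℕ), ∃ E : ℕ, 2 * E = 2 * j * i + i * (i + 1) ∧
      Module.finrank F (eig g c ⊓ eig a (l ^ j) : Submodule F (Fin n → F)) ≤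
      Module.finrank F (eig g (l ^ E * c) ⊓ eig a (l ^ (j + i)) : Submodule F (Fin n → F)) := by
    intro j i
    induction i with
    | zero => exact ⟨0, by simp, by rw [pow_zero, one_mul, add_zero]⟩
    | succ i ih =>
      obtain ⟨E, hE, ih⟩ := ih
      refine ⟨E + (j + i + 1), by rw [Nat.mul_add, hE]; ring, ih.trans ?_⟩
      refine finrank_le_of_mapsTo x _ _ fun v hv => ?_
      obtain ⟨hv1, hv2⟩ := Submodule.mem_inf.mp hv
      have hav := step_eig hax hv2
      rw [← pow_succ'] at hav
      refine Submodule.mem_inf.mpr ⟨mem_eig.mpr ?_, by rwa [← add_assoc]⟩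
      rw [mem_eig] at hv1 hav
      rw [Matrix.mulVec_mulVec, ← Units.val_mul, hgx, Units.val_mul, ← Matrix.mulVec_mulVec, hv1,
        Matrix.mulVec_smul, Units.val_mul, ← Matrix.mulVec_mulVec, hav, smul_smul]
      congr 1
      rw [pow_add l E (j + i + 1)]
      ring
  choose E hE hZ using hstep
  have key : ∑ j ∈ Finset.range r, Module.finrank F (W ⊓ eig a (l ^ j) : Submodule F (Fin n → F)) ≤
      2 * Module.finrank F (eig a 1) := by
    refine sum_le_of_eig (Finset.range r) g (eig a 1) _ (fun j => l ^ E j (r - j) * c) 2 ?_ ?_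
    · intro j hj
      rw [Finset.mem_range] at hj
      have h1 := hZ j (r - j)
      rwa [Nat.add_sub_cancel' hj.le, hl.pow_eq_one] at h1
    · intro j hj
      classical
      refine ⟨{j, (-(j : ZMod r) - 1).val}, Finset.card_le_two, fun k hk hkj => ?_⟩
      rw [Finset.mem_range] at hj hk
      have hmod : E k (r - k) ≡ E j (r - j) [MOD r] := by
        have := ((hl.isOfFinOrder hr.ne_zero).pow_eq_pow_iff_modEq).mp (mul_right_cancel₀ hc hkj)
        rwa [← hl.eq_orderOf] at this
      have hz : (E k (r - k) : ZMod r) = (E j (r - j) : ZMod r) :=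
        (ZMod.natCast_eq_natCast_iff _ _ _).mpr hmod
      have hval : ∀ i < r, (2 : ZMod r) * (E i (r - i) : ZMod r) = -(i : ZMod r) * (i + 1) := by
        intro i hi
        have h2 := congrArg (Nat.cast : ℕ → ZMod r) (hE i (r - i))
        push_cast [Nat.cast_sub hi.le, ZMod.natCast_self] at h2
        rw [h2]
        ring
      have h3 : ((k : ZMod r) - j) * ((k : ZMod r) + j + 1) = 0 := by
        have h4 : (2 : ZMod r) * (E k (r - k) : ZMod r) = 2 * (E j (r - j) : ZMod r) := by rw [hz]
        rw [hval k hk, hval j hj] at h4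
        linear_combination -h4
      rw [Finset.mem_insert, Finset.mem_singleton]
      rcases mul_eq_zero.mp h3 with h | h
      · left
        have h5 := congrArg ZMod.val (sub_eq_zero.mp h)
        rwa [ZMod.val_natCast_of_lt hk, ZMod.val_natCast_of_lt hj] at h5
      · right
        rw [← ZMod.val_natCast_of_lt hk]
        congr 1
        linear_combination h
  calc r * Module.finrank F W ≤ r * (2 * Module.finrank F (eig a 1)) :=
        Nat.mul_le_mul_left r (hle.trans key)
    _ ≤ 2 * n := by rw [← mul_assoc, mul_comm r 2, mul_assoc]; exact Nat.mul_le_mul_left 2 hfix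

end CfsgLib.ExtraEig
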