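/-
Commutators up to scalars in GL(n, F), and the algebra of an automorphism of odd order of an abelian section.
-/
import Mathlib
import Cfsg.Prelude.Def_GeometricClasses
import Cfsg.Agent.ExtraEig.Linear

open scoped MatrixGroups

set_option autoImplicit false

namespace CfsgLib.ExtraEig

open Cfsg.Geo (scalars)

section Iter

variable {Q : Type*} [Group Q]

theorem conj_iterate {s X k : Q} (hk : s * k = k * s) (h : s * X * s⁻¹ = k * X) (i : ℕ) :
    s ^ i * X * (s ^ i)⁻¹ = k ^ i * X := by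
  induction i with
  | zero => simp
  | succ i ih =>
    have hk' : s * k ^ i * s⁻¹ = k ^ i := by
      rw [(Commute.pow_right (show Commute s k from hk) i).eq, mul_inv_cancel_right]
    calc s ^ (i + 1) * X * (s ^ (i + 1))⁻¹ = s * (s ^ i * X * (s ^ i)⁻¹) * s⁻¹ := by
          rw [pow_succ']; group
      _ = (s * k ^ i * s⁻¹) * (s * X * s⁻¹) := by rw [ih]; group
      _ = k ^ (i + 1) * X := by rw [hk', h, pow_succ, mul_assoc]

/-- If `s` has odd order and `k := sXs⁻¹ (s⁻¹Xs)⁻¹` is fixed by `s` then so is `sXs⁻¹X⁻¹`, being a power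
of `k`. -/
theorem fixed_of_odd {s X k : Q} {m : ℕ} (hs : s ^ (2 * m + 1) = 1)
    (hk : k = s * X * s⁻¹ * (s⁻¹ * X * s)⁻¹) (hfix : s * k = k * s) :
    s * X * s⁻¹ * X⁻¹ = k ^ (m + 1) := by
  have h2 : s ^ 2 * X * (s ^ 2)⁻¹ = k * X := by
    have h : s * k * s⁻¹ = k := by rw [hfix, mul_inv_cancel_right]
    calc s ^ 2 * X * (s ^ 2)⁻¹
        = s * (s * X * s⁻¹ * (s⁻¹ * X * s)⁻¹) * s⁻¹ * X := by rw [pow_two]; group
      _ = k * X := by rw [← hk, h]
  have h := conj_iterate (Commute.pow_left (show Commute s k from hfix) 2) h2 (m + 1)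
  rw [← pow_mul, show 2 * (m + 1) = (2 * m + 1) + 1 by ring, pow_succ, hs, one_mul] at h
  rw [h, mul_inv_cancel_right]

/-- If moreover the elements concerned have order prime to that of `s`, then `s` commutes with `X`. -/
theorem commute_of_coprime {s X k : Q} {m r : ℕ} (hs : s ^ (2 * m + 1) = 1)
    (hk : k = s * X * s⁻¹ * (s⁻¹ * X * s)⁻¹) (hfix : s * k = k * s) (hkr : k ^ r = 1)
    (hcop : (2 * m + 1).Coprime r) : s * X * s⁻¹ * X⁻¹ = 1 := by
  have hY := fixed_of_odd hs hk hfix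
  set Y := s * X * s⁻¹ * X⁻¹ with hYdef
  have h1 : s * X * s⁻¹ = Y * X := by rw [hYdef, inv_mul_cancel_right]
  have hsY : s * Y = Y * s := by
    rw [hY]
    exact (Commute.pow_right (show Commute s k from hfix) _).eq
  have hYp : Y ^ (2 * m + 1) = 1 := by
    have := conj_iterate hsY h1 (2 * m + 1)
    rw [hs, one_mul, inv_one, mul_one] at this
    exact mul_right_cancel (b := X) (by rw [← this, one_mul])
  have hYr : Y ^ r = 1 := by rw [hY, ← pow_mul, mul_comm, pow_mul, hkr, one_pow]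
  have h := pow_gcd_eq_one.mpr ⟨hYp, hYr⟩
  rwa [Nat.coprime_iff_gcd_eq_one.mp hcop, pow_one] at h

end Iter

variable {F : Type*} [Field F] {n : ℕ}

/-- `g` and `h` commute up to the scalar `l`. -/
def Rel (g h : GL (Fin n) F) (l : F) : Prop :=
  ((g * h : GL (Fin n) F) : Matrix (Fin n) (Fin n) F) = l • ((h * g : GL (Fin n) F) : Matrix _ _ F)

variable [NeZero n]

theorem smul_val_cancel {g : GL (Fin n) F} {a b : F}
    (h : a • (g : Matrix (Fin n) (Fin n) F) = b • (g : Matrix (Fin n) (Fin n) F)) : a = b := by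
  have h1 := congrArg (fun M : Matrix (Fin n) (Fin n) F => M * ((g⁻¹ : GL (Fin n) F) : Matrix _ _ F)) h
  simp only [Matrix.smul_mul, ← Units.val_mul, mul_inv_cancel, Units.val_one] at h1
  simpa using congrFun (congrFun h1 0) 0

/-- The scalar up to which `g` and `h` commute, if there is one. -/
noncomputable def cv (g h : GL (Fin n) F) : F :=
  ((g * h * (h * g)⁻¹ : GL (Fin n) F) : Matrix (Fin n) (Fin n) F) 0 0

theorem Rel.cv_eq {g h : GL (Fin n) F} {l : F} (H : Rel g h l) : cv g h = l := by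
  unfold cv Rel at *
  rw [Units.val_mul, H, Matrix.smul_mul, ← Units.val_mul, mul_inv_cancel, Units.val_one]
  simp

/-- `g` and `h` commute up to some scalar. -/
def Sc (g h : GL (Fin n) F) : Prop := ∃ l, Rel g h l

theorem Sc.rel {g h : GL (Fin n) F} (H : Sc g h) : Rel g h (cv g h) := by
  obtain ⟨l, hl⟩ := H
  rwa [hl.cv_eq]

theorem rel_one_iff {g h : GL (Fin n) F} : Rel g h 1 ↔ g * h = h * g := by
  rw [Rel, one_smul]
  exact Units.val_inj

theorem Rel.mul_right {g a b : GL (Fin n) F} {l l' : F} (h : Rel g a l) (h' : Rel g b l') :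
    Rel g (a * b) (l * l') := by
  unfold Rel at *
  rw [← mul_assoc, Units.val_mul, h, Matrix.smul_mul, mul_assoc a b g]
  rw [show ((a * g : GL (Fin n) F) : Matrix (Fin n) (Fin n) F) * (b : Matrix _ _ F) =
    (a : Matrix _ _ F) * ((g * b : GL (Fin n) F) : Matrix _ _ F) by rw [Units.val_mul, Units.val_mul, mul_assoc],
    h', Matrix.mul_smul, smul_smul, ← Units.val_mul]

theorem Rel.symm {g a : GL (Fin n) F} {l : F} (h : Rel g a l) : Rel a g l⁻¹ := by
  unfold Rel at *
  have hl : l ≠ 0 := by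
    rintro rfl
    rw [zero_smul] at h
    exact Units.ne_zero _ h
  rw [h, smul_smul, inv_mul_cancel₀ hl, one_smul]

theorem Rel.mul_left {g a b : GL (Fin n) F} {l l' : F} (h : Rel a g l) (h' : Rel b g l') :
    Rel (a * b) g (l * l') := by
  have := (h.symm.mul_right h'.symm).symm
  rwa [mul_inv, inv_inv, inv_inv] at this

theorem Rel.pow_right {g a : GL (Fin n) F} {l : F} (h : Rel g a l) (i : ℕ) : Rel g (a ^ i) (l ^ i) := by
  induction i with
  | zero => simp [rel_one_iff]
  | succ i ih => rw [pow_succ, pow_succ]; exact ih.mul_right h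

theorem Rel.pow_left {g a : GL (Fin n) F} {l : F} (h : Rel a g l) (i : ℕ) : Rel (a ^ i) g (l ^ i) := by
  have := (h.symm.pow_right i).symm
  rwa [inv_pow, inv_inv] at this

theorem Rel.conj {a b : GL (Fin n) F} {l : F} (h : Rel a b l) (g : GL (Fin n) F) :
    Rel (g * a * g⁻¹) (g * b * g⁻¹) l := by
  unfold Rel at *
  rw [show g * a * g⁻¹ * (g * b * g⁻¹) = g * (a * b) * g⁻¹ by group,
    show g * b * g⁻¹ * (g * a * g⁻¹) = g * (b * a) * g⁻¹ by group]
  rw [Units.val_mul, Units.val_mul g, h, Matrix.mul_smul, Matrix.smul_mul]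
  rfl

theorem rel_scalar {g z : GL (Fin n) F} (hz : z ∈ scalars (Fin n) F) : Rel g z 1 := by
  obtain ⟨c, hc⟩ := (Cfsg.Geo.mem_scalars_iff z).mp hz
  rw [Rel, one_smul, Units.val_mul, Units.val_mul, hc, Matrix.mul_smul, Matrix.smul_mul, mul_one, one_mul]

theorem scalar_commute {g z : GL (Fin n) F} (hz : z ∈ scalars (Fin n) F) : z * g = g * z :=
  (rel_one_iff.mp (rel_scalar hz)).symm

theorem sc_iff {g h : GL (Fin n) F} : Sc g h ↔ g * h * g⁻¹ * h⁻¹ ∈ scalars (Fin n) F := by
  have hval : g * h = (g * h * g⁻¹ * h⁻¹) * (h * g) := by group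
  constructor
  · rintro ⟨l, hl⟩
    have hl0 : l ≠ 0 := by
      rintro rfl
      unfold Rel at hl
      rw [zero_smul] at hl
      exact Units.ne_zero _ hl
    rw [Cfsg.Geo.mem_scalars_iff]
    refine ⟨Units.mk0 l hl0, ?_⟩
    rw [show g * h * g⁻¹ * h⁻¹ = g * h * (h * g)⁻¹ by group, Units.val_mul, hl, Matrix.smul_mul,
      ← Units.val_mul, mul_inv_cancel, Units.val_one, Units.val_mk0]
  · intro H
    obtain ⟨c, hc⟩ := (Cfsg.Geo.mem_scalars_iff _).mp H
    refine ⟨c, ?_⟩
    unfold Rel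
    conv_lhs => rw [hval, Units.val_mul, hc, Matrix.smul_mul, one_mul]

end CfsgLib.ExtraEig
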