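/-
Eigenspace bounds for elements of prime order normalising a group which, modulo scalars, is elementary abelian
and acts absolutely irreducibly.
-/
import Mathlib
import Cfsg.Agent.ExtraEig.Group

open scoped MatrixGroups

set_option autoImplicit false

namespace CfsgLib.ExtraEig

open Cfsg.Geo (scalars)

variable {F : Type*} [Field F] {n : ℕ}

/-- An absolutely irreducible group of matrices which is elementary abelian of exponent `r` modulo scalars. -/
structure Sy (r : ℕ) (N : Subgroup (GL (Fin n) F)) : Prop where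
  comm : ∀ a ∈ N, ∀ b ∈ N, Sc a b
  pow : ∀ a ∈ N, a ^ r ∈ scalars (Fin n) F
  irr : ∀ M : Matrix (Fin n) (Fin n) F,
    (∀ x ∈ N, M * (x : Matrix (Fin n) (Fin n) F) = (x : Matrix (Fin n) (Fin n) F) * M) → ∃ d : F, M = d • 1

/-- The element measuring how far `g` is from centralising `x`. -/
def hh (g x : GL (Fin n) F) : GL (Fin n) F := g * x * g⁻¹ * x⁻¹

variable [NeZero n] {r : ℕ} {N : Subgroup (GL (Fin n) F)}

theorem Sc.cv_mul_left {a b g : GL (Fin n) F} (ha : Sc a g) (hb : Sc b g) :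
    cv (a * b) g = cv a g * cv b g :=
  (ha.rel.mul_left hb.rel).cv_eq

theorem Sc.cv_mul_right {a b g : GL (Fin n) F} (ha : Sc g a) (hb : Sc g b) :
    cv g (a * b) = cv g a * cv g b :=
  (ha.rel.mul_right hb.rel).cv_eq

theorem Sc.cv_symm {a b : GL (Fin n) F} (h : Sc a b) : cv b a = (cv a b)⁻¹ := h.rel.symm.cv_eq

theorem cv_scalar_left {a g : GL (Fin n) F} (ha : a ∈ scalars (Fin n) F) : cv a g = 1 :=
  (rel_one_iff.mpr (scalar_commute ha)).cv_eq

theorem cv_self (a : GL (Fin n) F) : cv a a = 1 := (rel_one_iff.mpr rfl).cv_eq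

theorem Sc.cv_conj {a b : GL (Fin n) F} (h : Sc a b) (g : GL (Fin n) F) :
    cv (g * a * g⁻¹) (g * b * g⁻¹) = cv a b :=
  (h.rel.conj g).cv_eq

theorem Sy.mem_scalars (hS : Sy r N) {x : GL (Fin n) F} (h : ∀ y ∈ N, x * y = y * x) :
    x ∈ scalars (Fin n) F := by
  obtain ⟨d, hd⟩ := hS.irr x fun y hy => by rw [← Units.val_mul, ← Units.val_mul, h y hy]
  have hd0 : d ≠ 0 := by
    rintro rfl
    rw [zero_smul] at hd
    exact Units.ne_zero _ hd
  exact (Cfsg.Geo.mem_scalars_iff x).mpr ⟨Units.mk0 d hd0, hd⟩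

theorem Sy.exists_cv_ne (hS : Sy r N) {x : GL (Fin n) F} (hx : x ∈ N) (hns : x ∉ scalars (Fin n) F) :
    ∃ y ∈ N, cv x y ≠ 1 := by
  by_contra! h
  refine hns (hS.mem_scalars fun y hy => rel_one_iff.mp ?_)
  rw [← h y hy]
  exact (hS.comm x hx y hy).rel

theorem Sy.cv_pow (hS : Sy r N) {a g : GL (Fin n) F} (ha : a ∈ N) (h : Sc a g) : cv a g ^ r = 1 := by
  rw [← (h.rel.pow_left r).cv_eq]
  exact cv_scalar_left (hS.pow a ha)

theorem primitive_of_pow (hr : r.Prime) {l : F} (h1 : l ^ r = 1) (h2 : l ≠ 1) : IsPrimitiveRoot l r := by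
  haveI : Fact r.Prime := ⟨hr⟩
  rw [← orderOf_eq_prime h1 h2]
  exact IsPrimitiveRoot.orderOf l

theorem Sy.primitive (hS : Sy r N) (hr : r.Prime) {a g : GL (Fin n) F} (ha : a ∈ N) (h : Sc a g)
    (hne : cv a g ≠ 1) : IsPrimitiveRoot (cv a g) r :=
  primitive_of_pow hr (hS.cv_pow ha h) hne

theorem Sy.dvd_dim (hS : Sy r N) (hr : r.Prime) {x : GL (Fin n) F} (hx : x ∈ N)
    (hns : x ∉ scalars (Fin n) F) : r ∣ n := by
  obtain ⟨y, hy, hne⟩ := hS.exists_cv_ne hx hns
  have h : ((x * y : GL (Fin n) F) : Matrix (Fin n) (Fin n) F) =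
      cv x y • ((y * x : GL (Fin n) F) : Matrix (Fin n) (Fin n) F) := (hS.comm x hx y hy).rel
  have h1 := congrArg Matrix.det h
  rw [Matrix.det_smul, Fintype.card_fin, Units.val_mul, Units.val_mul, Matrix.det_mul, Matrix.det_mul,
    mul_comm (Matrix.det (y : Matrix (Fin n) (Fin n) F))] at h1
  have hd : Matrix.det (x : Matrix (Fin n) (Fin n) F) * Matrix.det (y : Matrix (Fin n) (Fin n) F) ≠ 0 :=
    mul_ne_zero (IsUnit.ne_zero ((Matrix.isUnit_iff_isUnit_det _).mp x.isUnit))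
      (IsUnit.ne_zero ((Matrix.isUnit_iff_isUnit_det _).mp y.isUnit))
  exact (hS.primitive hr hx (hS.comm x hx y hy) hne).dvd_of_pow_eq_one n
    (mul_right_cancel₀ hd (by rw [one_mul]; exact h1.symm))

/-- The fixed space of a non-scalar element of `N` is small. -/
theorem Sy.fix_bound (hS : Sy r N) (hr : r.Prime) {a : GL (Fin n) F} (ha : a ∈ N)
    (hns : a ∉ scalars (Fin n) F) : r * Module.finrank F (eig a 1) ≤ n := by
  obtain ⟨y, hy, hne⟩ := hS.exists_cv_ne ha hns
  exact eig_bound (hS.primitive hr ha (hS.comm a ha y hy) hne) (hS.comm a ha y hy).rel 1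

/-- An element of `N` fixed by `g` modulo scalars is centralised by `g`, or forces small eigenspaces. -/
theorem Sy.commute_or_bound (hS : Sy r N) (hr : r.Prime) {g a : GL (Fin n) F} (ha : a ∈ N) (h : Sc g a)
    (c : F) : g * a = a * g ∨ r * Module.finrank F (eig g c) ≤ n := by
  by_cases h1 : cv g a = 1
  · left
    rw [← rel_one_iff, ← h1]
    exact h.rel
  · right
    have h' : Sc a g := ⟨_, h.rel.symm⟩
    refine eig_bound (l := cv g a) ?_ h.rel c
    rw [h'.cv_symm]
    refine (hS.primitive hr ha h' ?_).inv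
    rwa [h.cv_symm, ne_eq, inv_eq_one]

/-- Two translates of an eigenspace of `g` meet in the fixed space of `hh g x`. -/
theorem inter_fixed {g x : GL (Fin n) F} {c : F} (hc : c ≠ 0) {v : Fin n → F} (hv : v ∈ eig g c)
    (hxv : (x : Matrix (Fin n) (Fin n) F).mulVec v ∈ eig g c) :
    (x : Matrix (Fin n) (Fin n) F).mulVec v ∈ eig (hh g x) 1 ∧
      (x : Matrix (Fin n) (Fin n) F).mulVec v ∈ eig (g * hh g x * g⁻¹) 1 := by
  rw [mem_eig] at hv hxv
  have hinv : ∀ w, (g : Matrix (Fin n) (Fin n) F).mulVec w = c • w →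
      ((g⁻¹ : GL (Fin n) F) : Matrix (Fin n) (Fin n) F).mulVec w = c⁻¹ • w := by
    intro w hw
    have h1 := congrArg ((g⁻¹ : GL (Fin n) F) : Matrix (Fin n) (Fin n) F).mulVec hw
    rw [Matrix.mulVec_mulVec, ← Units.val_mul, inv_mul_cancel, Units.val_one, Matrix.one_mulVec,
      Matrix.mulVec_smul] at h1
    conv_rhs => rw [h1, smul_smul, inv_mul_cancel₀ hc, one_smul]
  have h1 : (hh g x : Matrix (Fin n) (Fin n) F).mulVec ((x : Matrix (Fin n) (Fin n) F).mulVec v) =
      (x : Matrix (Fin n) (Fin n) F).mulVec v := by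
    rw [Matrix.mulVec_mulVec, ← Units.val_mul, hh, inv_mul_cancel_right, Units.val_mul, Units.val_mul,
      ← Matrix.mulVec_mulVec, hinv v hv, Matrix.mulVec_smul, ← Matrix.mulVec_mulVec, hxv, smul_smul,
      inv_mul_cancel₀ hc, one_smul]
  refine ⟨mem_eig.mpr (by rw [h1, one_smul]), mem_eig.mpr ?_⟩
  rw [one_smul, Units.val_mul, Units.val_mul, ← Matrix.mulVec_mulVec, hinv _ hxv, Matrix.mulVec_smul,
    ← Matrix.mulVec_mulVec, h1, hxv, smul_smul, inv_mul_cancel₀ hc, one_smul]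

theorem two_mul_le (g x : GL (Fin n) F) {c : F} (hc : c ≠ 0) :
    2 * Module.finrank F (eig g c) ≤
      n + Module.finrank F (eig (hh g x) 1 ⊓ eig (g * hh g x * g⁻¹) 1 : Submodule F (Fin n → F)) := by
  set W := eig g c with hW
  set W' := W.map (Matrix.toLin' (x : Matrix (Fin n) (Fin n) F)) with hW'
  have h1 : Module.finrank F W ≤ Module.finrank F W' :=
    finrank_le_of_mapsTo x W W' fun v hv => ⟨v, hv, by rw [Matrix.toLin'_apply]⟩
  have h2 := Submodule.finrank_sup_add_finrank_inf_eq W W'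
  have h3 : Module.finrank F (W ⊔ W' : Submodule F (Fin n → F)) ≤ n :=
    (Submodule.finrank_le _).trans (by simp)
  have h4 : W ⊓ W' ≤ eig (hh g x) 1 ⊓ eig (g * hh g x * g⁻¹) 1 := by
    rintro _ ⟨hw, v, hv, rfl⟩
    rw [Matrix.toLin'_apply] at hw ⊢
    exact inter_fixed hc hv hw
  have h5 := Submodule.finrank_mono h4
  omega

/-- If `hh g x` and its conjugate by `g` do not commute then the eigenspace of `g` is at most half. -/
theorem half_of_cv (hS : Sy r N) {g x : GL (Fin n) F} (hx : hh g x ∈ N) (hgx : g * hh g x * g⁻¹ ∈ N)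
    (hne : cv (hh g x) (g * hh g x * g⁻¹) ≠ 1) {c : F} (hc : c ≠ 0) :
    2 * Module.finrank F (eig g c) ≤ n := by
  have hbot : eig (hh g x) 1 ⊓ eig (g * hh g x * g⁻¹) 1 = ⊥ := by
    rw [Submodule.eq_bot_iff]
    intro v hv
    obtain ⟨h1, h2⟩ := Submodule.mem_inf.mp hv
    rw [mem_eig, one_smul] at h1 h2
    have h := congrArg (fun M => Matrix.mulVec M v) ((hS.comm _ hx _ hgx).rel :
      ((hh g x * (g * hh g x * g⁻¹) : GL (Fin n) F) : Matrix (Fin n) (Fin n) F) = _)
    simp only [Units.val_mul (hh g x) (g * hh g x * g⁻¹), Units.val_mul (g * hh g x * g⁻¹) (hh g x),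
      Matrix.smul_mulVec, ← Matrix.mulVec_mulVec, h1, h2] at h
    have h3 : (cv (hh g x) (g * hh g x * g⁻¹) - 1) • v = 0 := by rw [sub_smul, one_smul, ← h, sub_self]
    exact (smul_eq_zero.mp h3).resolve_left (sub_ne_zero.mpr hne)
  have h := two_mul_le g x hc
  rw [hbot, finrank_bot] at h
  simpa using h

section Main

variable {g : GL (Fin n) F} {p : ℕ}

/-- The polarisation: if every `hh g x` commutes with its conjugate then `σ h (σ⁻¹ h)⁻¹` is fixed modulo
scalars. -/
theorem polar (hS : Sy r N) (hg1 : ∀ x ∈ N, g * x * g⁻¹ ∈ N) (hg2 : ∀ x ∈ N, g⁻¹ * x * g ∈ N)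
    (hiso : ∀ x ∈ N, cv (hh g x) (g * hh g x * g⁻¹) = 1) {x : GL (Fin n) F} (hx : x ∈ N) :
    Sc g (g * hh g x * g⁻¹ * (g⁻¹ * hh g x * g)⁻¹) := by
  have hH : ∀ y ∈ N, hh g y ∈ N := fun y hy => N.mul_mem (hg1 y hy) (N.inv_mem hy)
  set X := hh g x with hX
  have hXN : X ∈ N := hH x hx
  set k := g * X * g⁻¹ * (g⁻¹ * X * g)⁻¹ with hk
  have hkN : k ∈ N := N.mul_mem (hg1 X hXN) (N.inv_mem (hg2 X hXN))
  have C := hS.comm
  -- `k` is orthogonal to every `hh g y`
  have h1 : ∀ y ∈ N, cv k (hh g y) = 1 := by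
    intro y hy
    set Y := hh g y with hY
    have hYN : Y ∈ N := hH y hy
    -- polarised form of `hiso`
    have hpol : cv X (g * Y * g⁻¹) * cv Y (g * X * g⁻¹) = 1 := by
      have hxy : x * y ∈ N := N.mul_mem hx hy
      have he : hh g (x * y) = g * x * g⁻¹ * Y * x⁻¹ := by rw [hY, hh, hh]; group
      obtain ⟨l, hl⟩ := (C x hx Y hYN)
      have he2 : ∃ s ∈ scalars (Fin n) F, hh g (x * y) = s * (X * Y) := by
        have hs : Y * x⁻¹ * Y⁻¹ * x ∈ scalars (Fin n) F := by
          have := sc_iff.mp (C Y hYN x⁻¹ (N.inv_mem hx))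
          rwa [inv_inv] at this
        refine ⟨_, hs, ?_⟩
        rw [scalar_commute hs, he, hX, hh]
        calc g * x * g⁻¹ * Y * x⁻¹ = g * x * g⁻¹ * x⁻¹ * (x * (Y * x⁻¹ * Y⁻¹ * x) * x⁻¹) * Y := by group
          _ = g * x * g⁻¹ * x⁻¹ * (Y * x⁻¹ * Y⁻¹ * x) * Y := by rw [← scalar_commute hs (g := x)]; group
          _ = g * x * g⁻¹ * x⁻¹ * Y * (Y * x⁻¹ * Y⁻¹ * x) := by
              rw [mul_assoc _ (Y * x⁻¹ * Y⁻¹ * x) Y, scalar_commute hs (g := Y), ← mul_assoc]
      obtain ⟨s, hs, he2⟩ := he2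
      have h0 := hiso (x * y) hxy
      rw [he2, show g * (s * (X * Y)) * g⁻¹ = s * (g * X * g⁻¹ * (g * Y * g⁻¹)) by
        rw [show g * (s * (X * Y)) = s * (g * (X * Y)) by
          rw [← mul_assoc, ← scalar_commute hs (g := g), mul_assoc]]
        group] at h0
      have hgX := hg1 X hXN
      have hgY := hg1 Y hYN
      have hXY := N.mul_mem hXN hYN
      have hgXY := N.mul_mem hgX hgY
      have hss : ∀ z ∈ N, Sc s z ∧ Sc z s := fun z _ =>
        ⟨⟨1, rel_one_iff.mpr (scalar_commute hs)⟩, ⟨1, rel_scalar hs⟩⟩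
      have hssc : Sc s (s * (g * X * g⁻¹ * (g * Y * g⁻¹))) := ⟨1, rel_one_iff.mpr (scalar_commute hs)⟩
      have hXYsc : Sc (X * Y) (s * (g * X * g⁻¹ * (g * Y * g⁻¹))) :=
        ⟨_, ((hss _ hXY).2.rel).mul_right (C _ hXY _ hgXY).rel⟩
      rw [Sc.cv_mul_left hssc hXYsc, cv_scalar_left hs, one_mul,
        Sc.cv_mul_right (hss _ hXY).2 (C _ hXY _ hgXY), (rel_scalar hs).cv_eq, one_mul,
        Sc.cv_mul_left (C _ hXN _ hgXY) (C _ hYN _ hgXY),
        Sc.cv_mul_right (C _ hXN _ hgX) (C _ hXN _ hgY), Sc.cv_mul_right (C _ hYN _ hgX) (C _ hYN _ hgY),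
        hX, hiso x hx, hY, hiso y hy, one_mul, mul_one] at h0
      exact h0
    have h2 : cv (g⁻¹ * X * g) Y = cv X (g * Y * g⁻¹) := by
      rw [← Sc.cv_conj (C _ (hg2 X hXN) _ hYN) g]
      congr 1
      group
    have hinv := Sc.cv_mul_left (C _ (hg2 X hXN) _ hYN) (C _ (N.inv_mem (hg2 X hXN)) _ hYN)
    rw [mul_inv_cancel, cv_scalar_left (one_mem _), h2] at hinv
    rw [hk, Sc.cv_mul_left (C _ (hg1 X hXN) _ hYN) (C _ (N.inv_mem (hg2 X hXN)) _ hYN),
      eq_inv_of_mul_eq_one_right hinv.symm]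
    rw [Sc.cv_symm (C _ hYN _ (hg1 X hXN)), ← mul_inv, mul_comm, hpol, inv_one]
  -- hence `g k g⁻¹ k⁻¹` is orthogonal to everything
  rw [sc_iff]
  refine hS.mem_scalars fun z hz => rel_one_iff.mp ?_
  have hgk := hg1 k hkN
  have hk'N : g * k * g⁻¹ * k⁻¹ ∈ N := N.mul_mem hgk (N.inv_mem hkN)
  convert (C _ hk'N _ hz).rel using 1
  set z' := g⁻¹ * z * g with hz'
  have hz'N : z' ∈ N := hg2 z hz
  have hzz : g * z' * g⁻¹ = z := by rw [hz']; group
  have e1 : cv k (hh g z') = cv k z * cv k z'⁻¹ := by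
    rw [hh, hzz]
    exact Sc.cv_mul_right (C _ hkN _ hz) (C _ hkN _ (N.inv_mem hz'N))
  have e2 : cv k z' * cv k z'⁻¹ = 1 := by
    rw [← Sc.cv_mul_right (C _ hkN _ hz'N) (C _ hkN _ (N.inv_mem hz'N)), mul_inv_cancel,
      (rel_scalar (one_mem _)).cv_eq]
  have e3 : cv (g * k * g⁻¹) z = cv k z' := by
    rw [← hzz]
    exact Sc.cv_conj (C _ hkN _ hz'N) g
  have e4 : cv k z * cv k⁻¹ z = 1 := by
    rw [← Sc.cv_mul_left (C _ hkN _ hz) (C _ (N.inv_mem hkN) _ hz), mul_inv_cancel,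
      cv_scalar_left (one_mem _)]
  rw [Sc.cv_mul_left (C _ hgk _ hz) (C _ (N.inv_mem hkN) _ hz), e3]
  have e5 : cv k z * cv k z'⁻¹ = 1 := by rw [← e1]; exact h1 z' hz'N
  calc (1 : F) = cv k z * cv k⁻¹ z := e4.symm
    _ = (cv k z * cv k z'⁻¹) * (cv k z' * cv k⁻¹ z) := by rw [← one_mul (cv k z * cv k⁻¹ z), ← e2]; ring
    _ = cv k z' * cv k⁻¹ z := by rw [e5, one_mul]

theorem sc_iff_mk {g h : GL (Fin n) F} :
    Sc g h ↔ (QuotientGroup.mk' (scalars (Fin n) F) g) * QuotientGroup.mk' (scalars (Fin n) F) h =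
      QuotientGroup.mk' (scalars (Fin n) F) h * QuotientGroup.mk' (scalars (Fin n) F) g := by
  rw [sc_iff]
  refine (QuotientGroup.eq_one_iff _).symm.trans ?_
  change QuotientGroup.mk' (scalars (Fin n) F) (g * h * g⁻¹ * h⁻¹) = 1 ↔ _
  rw [map_mul, map_mul, map_mul, map_inv, map_inv, mul_inv_eq_one, mul_inv_eq_iff_eq_mul]

theorem mk_eq_one {h : GL (Fin n) F} :
    QuotientGroup.mk' (scalars (Fin n) F) h = 1 ↔ h ∈ scalars (Fin n) F :=
  QuotientGroup.eq_one_iff h

theorem bounds (hS : Sy r N) (hr : r.Prime) (hg1 : ∀ x ∈ N, g * x * g⁻¹ ∈ N)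
    (hg2 : ∀ x ∈ N, g⁻¹ * x * g ∈ N) (hp : p.Prime) (hord : orderOf g = p)
    (hns : g ∉ scalars (Fin n) F) (c : F) :
    (p = 2 → 4 * Module.finrank F (eig g c) ≤ 3 * n) ∧
    (p = 3 → 3 * Module.finrank F (eig g c) ≤ 2 * n) ∧
    (3 < p → 2 * Module.finrank F (eig g c) ≤ n) ∧
    (p = 3 → ¬ 3 ∣ n → 2 * Module.finrank F (eig g c) ≤ n) := by
  set w := Module.finrank F (eig g c) with hw
  have small : 2 * w ≤ n → (p = 2 → 4 * w ≤ 3 * n) ∧ (p = 3 → 3 * w ≤ 2 * n) ∧ (3 < p → 2 * w ≤ n) ∧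
      (p = 3 → ¬ 3 ∣ n → 2 * w ≤ n) :=
    fun h => ⟨fun _ => by omega, fun _ => by omega, fun _ => h, fun _ _ => h⟩
  have of_r : r * w ≤ n → 2 * w ≤ n := fun h =>
    (Nat.mul_le_mul_right w hr.two_le).trans h
  by_cases hc : c = 0
  · refine small ?_
    rw [hw, hc, eig_zero]
    simp
  have hH : ∀ y ∈ N, hh g y ∈ N := fun y hy => N.mul_mem (hg1 y hy) (N.inv_mem hy)
  by_cases hA : ∀ x ∈ N, hh g x ∈ scalars (Fin n) F
  · -- `g` centralises `N` modulo scalars
    obtain ⟨x, hx, hne⟩ : ∃ x ∈ N, g * x ≠ x * g := by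
      by_contra! h
      exact hns (hS.mem_scalars h)
    rcases hS.commute_or_bound hr hx (sc_iff.mpr (hA x hx)) c with h | h
    · exact absurd h hne
    · exact small (of_r h)
  push Not at hA
  obtain ⟨x₀, hx₀, hx₀ns⟩ := hA
  have hrn : r ∣ n := hS.dvd_dim hr (hH x₀ hx₀) hx₀ns
  have h2w := two_mul_le g x₀ hc
  have hfix := hS.fix_bound hr (hH x₀ hx₀) hx₀ns
  have hf : r * Module.finrank F
      (eig (hh g x₀) 1 ⊓ eig (g * hh g x₀ * g⁻¹) 1 : Submodule F (Fin n → F)) ≤ n :=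
    (Nat.mul_le_mul_left r (Submodule.finrank_mono inf_le_left)).trans hfix
  rw [← hw] at h2w
  set f := Module.finrank F (eig (hh g x₀) 1 ⊓ eig (g * hh g x₀ * g⁻¹) 1 : Submodule F (Fin n → F))
  -- the bound for odd primes
  have key : p ≠ 2 → (p ≠ r ∨ 5 ≤ r) → 2 * w ≤ n := by
    intro hp2 hcase
    by_cases hiso : ∀ x ∈ N, cv (hh g x) (g * hh g x * g⁻¹) = 1
    swap
    · push Not at hiso
      obtain ⟨x, hx, hne⟩ := hiso
      exact half_of_cv hS (hH x hx) (hg1 _ (hH x hx)) hne hc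
    obtain ⟨m, hm⟩ := hp.odd_of_ne_two hp2
    haveI := (inferInstance : (scalars (Fin n) F).Normal)
    set π := QuotientGroup.mk' (scalars (Fin n) F) with hπ
    have hs : π g ^ (2 * m + 1) = 1 := by rw [← map_pow, ← hm, ← hord, pow_orderOf_eq_one, map_one]
    -- the elements `g h g⁻¹ h⁻¹`, for `h = hh g x`, are fixed modulo scalars
    have hY : ∀ x ∈ N, Sc g (hh g (hh g x)) := by
      intro x hx
      have hk := sc_iff_mk.mp (polar hS hg1 hg2 hiso hx)
      rw [sc_iff_mk]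
      rw [← hπ] at hk ⊢
      have := fixed_of_odd (X := π (hh g x)) (k := π (g * hh g x * g⁻¹ * (g⁻¹ * hh g x * g)⁻¹)) hs
        (by simp) hk
      rw [show π (hh g (hh g x)) = π g * π (hh g x) * (π g)⁻¹ * (π (hh g x))⁻¹ by
        rw [hh, map_mul, map_mul, map_mul, map_inv, map_inv], this]
      exact (Commute.pow_right hk _).eq
    by_cases hY2 : ∃ x ∈ N, hh g (hh g x) ∉ scalars (Fin n) F
    · obtain ⟨x, hx, hans⟩ := hY2
      set h := hh g x with hh'
      set a := hh g h with ha'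
      have haN : a ∈ N := hH h (hH x hx)
      rcases hS.commute_or_bound hr haN (hY x hx) c with hga | hb
      swap
      · exact of_r hb
      by_cases hpr : p = r
      · have hgh : g * h = a * h * g := by rw [ha', hh]; group
        have hah : a * h = h * a := by
          rw [← rel_one_iff]
          convert (hS.comm a haN h (hH x hx)).rel using 1
          rw [ha', hh, Sc.cv_mul_left (hS.comm _ (hg1 _ (hH x hx)) _ (hH x hx))
            (hS.comm _ (N.inv_mem (hH x hx)) _ (hH x hx)),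
            Sc.cv_symm (hS.comm _ (hH x hx) _ (hg1 _ (hH x hx))), hiso x hx, inv_one, one_mul,
            (rel_one_iff.mpr (by group)).cv_eq]
        have har : a ^ r = 1 := by
          have := conj_iterate hga (show g * h * g⁻¹ = a * h by rw [hgh]; group) r
          rw [← hpr, ← hord, pow_orderOf_eq_one, one_mul, inv_one, mul_one, hord, hpr] at this
          exact mul_right_cancel (b := h) (by rw [one_mul, ← this])
        obtain ⟨y, hy, hne⟩ := hS.exists_cv_ne haN hans
        have := bound_commuting hr (hS.primitive hr haN (hS.comm a haN y hy) hne) har hga hgh hah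
          (hS.fix_bound hr haN hans) c
        rw [← hw] at this
        have h5 : 5 * w ≤ r * w := Nat.mul_le_mul_right w (hcase.resolve_left (not_not.mpr hpr))
        omega
      · -- orders prime to each other
        exfalso
        have hcop : (2 * m + 1).Coprime r := by rw [← hm]; exact (Nat.coprime_primes hp hr).mpr hpr
        have hk := sc_iff_mk.mp (polar hS hg1 hg2 hiso hx)
        have hkr : (π (g * h * g⁻¹ * (g⁻¹ * h * g)⁻¹)) ^ r = 1 := by
          rw [← map_pow, hπ, mk_eq_one]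
          exact hS.pow _ (N.mul_mem (hg1 _ (hH x hx)) (N.inv_mem (hg2 _ (hH x hx))))
        have := commute_of_coprime (X := π h) (k := π (g * h * g⁻¹ * (g⁻¹ * h * g)⁻¹)) hs (by simp) hk
          hkr hcop
        apply hans
        rw [← mk_eq_one, ← hπ, ha', hh]
        simpa using this
    push Not at hY2
    -- now every `hh g x` is fixed modulo scalars
    have hfixed : ∀ x ∈ N, Sc g (hh g x) := fun x hx => sc_iff.mpr (hY2 x hx)
    by_cases hpr : p = r
    · obtain ⟨x, hx, hne⟩ : ∃ x ∈ N, cv (hh g x) x ≠ 1 := by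
        by_contra! hzero
        apply hx₀ns
        have h0 : ∀ x ∈ N, cv (g * x * g⁻¹) x = 1 := by
          intro x hx
          have := hzero x hx
          rwa [hh, Sc.cv_mul_left (hS.comm _ (hg1 x hx) x hx) (hS.comm _ (N.inv_mem hx) x hx),
            (rel_one_iff.mpr (show x⁻¹ * x = x * x⁻¹ by group)).cv_eq, mul_one] at this
        set X := x₀ with hX
        have hk0 : g * X * g⁻¹ * (g⁻¹ * X * g)⁻¹ ∈ scalars (Fin n) F := by
          refine hS.mem_scalars fun y hy => rel_one_iff.mp ?_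
          have hkN := N.mul_mem (hg1 X hx₀) (N.inv_mem (hg2 X hx₀))
          convert (hS.comm _ hkN y hy).rel using 1
          have hinv := Sc.cv_mul_left (hS.comm _ (hg2 X hx₀) _ hy) (hS.comm _ (N.inv_mem (hg2 X hx₀)) _ hy)
          rw [mul_inv_cancel, cv_scalar_left (one_mem _)] at hinv
          have h2 : cv (g⁻¹ * X * g) y = cv X (g * y * g⁻¹) := by
            rw [← Sc.cv_conj (hS.comm _ (hg2 X hx₀) _ hy) g]
            congr 1
            group
          have hp0 : cv (g * X * g⁻¹) y * cv (g * y * g⁻¹) X = 1 := by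
            have h := h0 (X * y) (N.mul_mem hx₀ hy)
            rw [show g * (X * y) * g⁻¹ = g * X * g⁻¹ * (g * y * g⁻¹) by group,
              Sc.cv_mul_left (hS.comm _ (hg1 X hx₀) _ (N.mul_mem hx₀ hy))
                (hS.comm _ (hg1 y hy) _ (N.mul_mem hx₀ hy)),
              Sc.cv_mul_right (hS.comm _ (hg1 X hx₀) _ hx₀) (hS.comm _ (hg1 X hx₀) _ hy),
              Sc.cv_mul_right (hS.comm _ (hg1 y hy) _ hx₀) (hS.comm _ (hg1 y hy) _ hy),
              h0 X hx₀, h0 y hy, one_mul, mul_one] at h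
            exact h
          rw [Sc.cv_mul_left (hS.comm _ (hg1 X hx₀) _ hy) (hS.comm _ (N.inv_mem (hg2 X hx₀)) _ hy),
            eq_inv_of_mul_eq_one_right hinv.symm, h2, ← Sc.cv_symm (hS.comm _ hx₀ _ (hg1 y hy)), hp0]
        have := fixed_of_odd (X := π X) (k := π (g * X * g⁻¹ * (g⁻¹ * X * g)⁻¹)) hs (by simp)
          (by rw [hπ, mk_eq_one.mpr hk0]; simp)
        rw [hπ, mk_eq_one.mpr hk0, one_pow, ← hπ] at this
        rw [← mk_eq_one, ← hπ, hh]
        simpa using this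
      have hxs : x ∉ scalars (Fin n) F := fun h =>
        hne (rel_scalar h).cv_eq
      set a := hh g x with ha'
      have haN : a ∈ N := hH x hx
      have hans : a ∉ scalars (Fin n) F := fun h => hne (cv_scalar_left h)
      rcases hS.commute_or_bound hr haN (hfixed x hx) c with hga | hb
      swap
      · exact of_r hb
      have hgx : g * x = a * x * g := by rw [ha', hh]; group
      have har : a ^ r = 1 := by
        have := conj_iterate hga (show g * x * g⁻¹ = a * x by rw [hgx]; group) r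
        rw [← hpr, ← hord, pow_orderOf_eq_one, one_mul, inv_one, mul_one, hord, hpr] at this
        exact mul_right_cancel (b := x) (by rw [one_mul, ← this])
      have := bound_shift hr (hS.primitive hr haN (hS.comm a haN x hx) hne) har hga hgx
        (hS.comm a haN x hx).rel (hS.fix_bound hr haN hans) c
      rw [← hw] at this
      have h5 : 5 * w ≤ r * w := Nat.mul_le_mul_right w (hcase.resolve_left (not_not.mpr hpr))
      omega
    · exfalso
      apply hx₀ns
      have h1 := sc_iff_mk.mp (hfixed x₀ hx₀)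
      have h2 := conj_iterate (s := π g) (X := π x₀) (k := π (hh g x₀)) h1 (by simp [hh]) (2 * m + 1)
      rw [hs, one_mul, inv_one, mul_one] at h2
      have h3 : π (hh g x₀) ^ (2 * m + 1) = 1 := mul_right_cancel (b := π x₀) (by rw [one_mul, ← h2])
      have h4 : π (hh g x₀) ^ r = 1 := by
        rw [← map_pow, hπ, mk_eq_one]
        exact hS.pow _ (hH x₀ hx₀)
      have h5 := pow_gcd_eq_one.mpr ⟨h3, h4⟩
      rw [← hm, Nat.coprime_iff_gcd_eq_one.mp ((Nat.coprime_primes hp hr).mpr hpr), pow_one, hπ,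
        mk_eq_one] at h5
      exact h5
  refine ⟨fun h => ?_, fun h => ?_, fun h => ?_, fun h h3 => ?_⟩
  · have := Nat.mul_le_mul_right f hr.two_le
    omega
  · by_cases hr3 : r = 3
    · subst hr3
      omega
    · have := key (by omega) (Or.inl (by omega))
      omega
  · refine key (by omega) ?_
    by_cases hpr : p = r
    · right
      have : p ≠ 4 := fun h4 => absurd hp (by rw [h4]; norm_num)
      omega
    · exact Or.inl hpr
  · exact key (by omega) (Or.inl (fun hpr => h3 (by rw [← h, hpr]; exact hrn)))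

end Main

end CfsgLib.ExtraEig
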